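import Cfsg.Agent.H754.PQ.TwoRows
import Cfsg.Agent.H660.PQ.RowTw
import Cfsg.Agent.S1068

/-!
# S4981: the case `p ∣ Q² - 1` of the exceptional rows in the form wanted by helper660 (helper754)
-/

set_option autoImplicit false

open Cfsg Subgroup

namespace Cfsg.Agent.H754.PQ

open Cfsg.Lie Cfsg.Agent.ChevalleyStructure Cfsg.Agent.ChevalleyStructure.Elts
open Cfsg.Agent.H54.PQ Cfsg.Agent.H967.CopMat Cfsg.Agent.H967.CopChev Cfsg.Agent.H660.PQ
  Cfsg.Agent.H967.CopTw Cfsg.Agent.H967.CopSz Cfsg.Agent.H967.FaTw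

open scoped MatrixGroups

theorem dvd_of_sq {p n : ℕ} [Fact p.Prime] (hn : 1 < n) (h : ((n : ℕ) : ZMod p) ^ 2 = 1) : p ∣ n ^ 2 - 1 := by
  have h1 : 1 ≤ n ^ 2 := Nat.one_le_pow _ _ (by omega)
  rw [← ZMod.natCast_eq_zero_iff, Nat.cast_sub h1, Nat.cast_pow, h, Nat.cast_one, sub_self]

theorem ker_id {G : Type*} [Group G] : ∀ z ∈ (MonoidHom.id G).ker, z ∈ center G := by
  intro z hz
  have h : z = 1 := hz
  rw [h]
  exact one_mem _

theorem ker_id_card {p : ℕ} (hp : p.Prime) {G : Type*} [Group G] : ¬ p ∣ Nat.card (MonoidHom.id G).ker := by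
  have h1 : (MonoidHom.id G).ker = ⊥ := (MonoidHom.ker_eq_bot_iff _).2 Function.injective_id
  rw [h1, Subgroup.card_bot]
  exact fun h => hp.one_lt.ne' (Nat.dvd_one.1 h)

theorem twoChev {D : ChevalleyDatum} (hD : InList D) (hL : ∃ r, LongOK D r) : TwoChev D := by
  intro p q _ _ F _ _ h7 h3 hpF _ _ A Φ φ _ hF hinv hord h2
  have h5 : 5 ≤ q := by
    have hq : q.Prime := Fact.out
    by_contra h
    have : q = 4 := by omega
    subst this
    exact absurd hq (by decide)
  exact two_chev hD hL hpF hF hinv (stab_group D F) (MonoidHom.id _) Function.surjective_id ker_id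
    (ker_id_card Fact.out) (fun _ _ => rfl) h7 h5 hord
    (dvd_of_sq (by rw [Nat.card_eq_fintype_card]; exact Fintype.one_lt_card) h2)

theorem twoTwE6 : TwoTwE6 := by
  intro p q _ _ F _ _ Q hQ hcF hpF h7 h3 _ _ A Φ φ _ hF hinv hord h2
  have h5 : 5 ≤ q := by
    have hq : q.Prime := Fact.out
    by_contra h
    have : q = 4 := by omega
    subst this
    exact absurd hq (by decide)
  exact two_twE6 hQ (by rw [Nat.card_eq_fintype_card, hcF]) hpF hF hinv (stab_e6 Q) (MonoidHom.id _)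
    Function.surjective_id ker_id (ker_id_card Fact.out) (fun _ _ => rfl) h7 h5 hord (dvd_of_sq hQ.one_lt h2)

theorem twoTwD4 : TwoTwD4 := by
  intro p q _ _ F _ _ Q hQ hcF hpF h7 h3 _ _ A Φ φ _ hF hinv hord h2
  have h5 : 5 ≤ q := by
    have hq : q.Prime := Fact.out
    by_contra h
    have : q = 4 := by omega
    subst this
    exact absurd hq (by decide)
  exact two_twD4 hQ (by rw [Nat.card_eq_fintype_card, hcF]) hpF hF hinv (stab_d4 Q) (MonoidHom.id _)
    Function.surjective_id ker_id (ker_id_card Fact.out) (fun _ _ => rfl) h7 h5 hord (dvd_of_sq hQ.one_lt h2)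

theorem twoTwF4 : TwoTwF4 := by
  intro p q _ _ F _ _ m hm hcF hpF hp7 h3 hqG _ A Φ φ _ hF hinv hord h2
  have h7 : 7 ≤ q := by
    have hq : q.Prime := Fact.out
    by_contra h
    have h4 : q = 4 ∨ q = 5 ∨ q = 6 := by omega
    rcases h4 with h4 | h4 | h4
    · subst h4; exact absurd hq (by decide)
    · subst h4
      apply hqG
      rw [S1068.result hcF]
      have h5 : 5 ∣ (2 ^ (2 * m + 1)) ^ 4 - 1 := by
        rw [← pow_mul, mul_comm, pow_mul]
        have := Nat.sub_dvd_pow_sub_pow (2 ^ 4) 1 (2 * m + 1)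
        rw [one_pow] at this
        exact (by norm_num : 5 ∣ 2 ^ 4 - 1).trans this
      exact (h5.mul_left _).mul_right _
    · subst h4; exact absurd hq (by decide)
  exact two_twF4 (by rw [Nat.card_eq_fintype_card, hcF]) hpF hF hinv (stab_f4 (2 ^ m)) (MonoidHom.id _)
    Function.surjective_id ker_id (ker_id_card Fact.out) (fun _ _ => rfl) hp7 h7 hord
    (dvd_of_sq (by rw [Nat.card_eq_fintype_card]; exact Fintype.one_lt_card) h2)

end Cfsg.Agent.H754.PQ
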